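import Mathlib
import Cfsg.Agent.Lib.Helper14.MinSp.Defs

/-! Piece [G3] of the S2141 farm (helper14): the global contradiction for even `q`. -/

set_option autoImplicit false
set_option linter.unusedSectionVars false

namespace Cfsg.Agent.Lib.Helper24.MinSp

open Matrix Cfsg.Agent.Lib.Helper13 Cfsg.Agent.Lib.Helper5 Cfsg.Agent.Lib.Helper14.MinSp

variable {F : Type*} [Field F] {m : ℕ}

local notation "V" => (Fin m ⊕ Fin m → F)
local notation "Sp" => Matrix.symplecticGroup (Fin m) F

lemma sieg_mulVec (u w : V) (huw : Cfsg.sympForm m F u w = 0) (a : F) (x : V) :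
    (sieg u w a).1 *ᵥ x = x + Cfsg.sympForm m F x u • w + Cfsg.sympForm m F x w • u
      + (a * Cfsg.sympForm m F x u) • u := by
  have hwu : Cfsg.sympForm m F w u = 0 := by rw [sympForm_swap, huw, neg_zero]
  unfold sieg
  rw [sp_mul_mulVec, sp_mul_mulVec, sp_mul_mulVec, tv_mulVec, tv_mulVec, tv_mulVec, tv_mulVec]
  simp only [sympForm_add_left, sympForm_add_right, sympForm_smul_left, sympForm_self, huw, hwu]
  module

lemma sieg_conj (g : Sp) (u w : V) (a : F) :
    g * sieg u w a * g⁻¹ = sieg (g.1 *ᵥ u) (g.1 *ᵥ w) a := by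
  unfold sieg
  rw [← tv_conj, ← tv_conj, ← tv_conj, ← Matrix.mulVec_add, ← tv_conj]
  group

lemma sieg_mul (u w w' : V) (huw : Cfsg.sympForm m F u w = 0) (huw' : Cfsg.sympForm m F u w' = 0)
    (a a' : F) :
    sieg u w a * sieg u w' a' = sieg u (w + w') (a + a' + Cfsg.sympForm m F w' w) := by
  have hwu : Cfsg.sympForm m F w u = 0 := by rw [sympForm_swap, huw, neg_zero]
  have hwu' : Cfsg.sympForm m F w' u = 0 := by rw [sympForm_swap, huw', neg_zero]
  apply sp_ext
  intro x
  rw [sp_mul_mulVec, sieg_mulVec u w' huw', sieg_mulVec u w huw,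
    sieg_mulVec u (w + w') (by rw [sympForm_add_right, huw, huw', add_zero])]
  simp only [sympForm_add_left, sympForm_add_right, sympForm_smul_left, sympForm_self, huw,
    hwu']
  module

lemma sieg_add_smul (u w : V) (huw : Cfsg.sympForm m F u w = 0) (τ a : F) :
    sieg u (w + τ • u) a = sieg u w (a + 2 * τ) := by
  apply sp_ext
  intro x
  rw [sieg_mulVec u w huw, sieg_mulVec u (w + τ • u)
    (by rw [sympForm_add_right, huw, sympForm_smul_right, sympForm_self]; simp)]
  simp only [sympForm_add_right, sympForm_smul_right]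
  module

lemma sieg_zero (u : V) (a : F) : sieg u 0 a = tv u a := by
  apply sp_ext
  intro x
  rw [sieg_mulVec u 0 (sympForm_zero_right u), tv_mulVec, sympForm_zero_right]
  module

lemma exists_perp (u y : V) (hu : u ≠ 0) (hy : ∀ t : F, y ≠ t • u) (α : F) :
    ∃ w : V, Cfsg.sympForm m F u w = 0 ∧ Cfsg.sympForm m F w y = α := by
  -- some `z` with `(z,u) = 1`
  obtain ⟨z, hz⟩ : ∃ z : V, Cfsg.sympForm m F z u = 1 := by
    by_contra hcon
    push Not at hcon
    apply hu
    apply sympForm_nondeg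
    intro v
    by_contra hv
    apply hcon ((-(Cfsg.sympForm m F u v))⁻¹ • v)
    rw [sympForm_smul_left, sympForm_swap v u]
    exact inv_mul_cancel₀ (neg_ne_zero.2 hv)
  obtain ⟨w₀, hw₀u, hw₀y⟩ : ∃ w : V, Cfsg.sympForm m F w u = 0 ∧ Cfsg.sympForm m F w y ≠ 0 := by
    by_contra hcon
    push Not at hcon
    apply hy (Cfsg.sympForm m F z y)
    rw [← sub_eq_zero]
    apply sympForm_nondeg
    intro x
    have h1 := hcon (x - Cfsg.sympForm m F x u • z)
      (by rw [sympForm_sub_left, sympForm_smul_left, hz]; ring)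
    rw [sympForm_sub_left, sympForm_smul_left] at h1
    rw [sympForm_swap, sympForm_sub_right, sympForm_smul_right]
    linear_combination -h1
  refine ⟨(α / Cfsg.sympForm m F w₀ y) • w₀, ?_, ?_⟩
  · rw [sympForm_smul_right, sympForm_swap u w₀, hw₀u]; simp
  · rw [sympForm_smul_left]; field_simp

/-- The key computation of [G3]. -/
lemma key_even (h2 : (2 : F) = 0) (H : Subgroup Sp)
    (hstar : ∀ u w : V, u ≠ 0 → Cfsg.sympForm m F u w = 0 → ∃ a, sieg u w a ∈ H)
    (u y : V) (hu : u ≠ 0) (hy : ∀ t : F, y ≠ t • u) (huy : Cfsg.sympForm m F u y = 0)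
    (s b : F) (hg : sieg y (s • u) b ∈ H) (α : F) :
    sieg u ((b * α) • y) (b * α ^ 2) ∈ H := by
  have hyu : Cfsg.sympForm m F y u = 0 := by rw [sympForm_swap, huy, neg_zero]
  obtain ⟨w, huw, hwy⟩ := exists_perp u y hu hy α
  have hwu : Cfsg.sympForm m F w u = 0 := by rw [sympForm_swap, huw, neg_zero]
  obtain ⟨a, hr⟩ := hstar u w hu huw
  have hysu : Cfsg.sympForm m F y (s • u) = 0 := by rw [sympForm_smul_right, hyu, mul_zero]
  have hgu : (sieg y (s • u) b).1 *ᵥ u = u := by
    rw [sieg_mulVec y (s • u) hysu, huy, sympForm_smul_right, sympForm_self]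
    simp
  have hgw : (sieg y (s • u) b).1 *ᵥ w = (w + (b * α) • y) + (α * s) • u := by
    rw [sieg_mulVec y (s • u) hysu, hwy, sympForm_smul_right, hwu]
    module
  have h1 : sieg y (s • u) b * sieg u w a * (sieg y (s • u) b)⁻¹ * sieg u w a ∈ H :=
    H.mul_mem (H.mul_mem (H.mul_mem hg hr) (H.inv_mem hg)) hr
  have huw2 : Cfsg.sympForm m F u (w + (b * α) • y) = 0 := by
    rw [sympForm_add_right, huw, sympForm_smul_right, huy]; simp
  rw [sieg_conj, hgu, hgw, sieg_add_smul u _ huw2, sieg_mul u _ _ huw2 huw] at h1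
  have e1 : w + (b * α) • y + w = (b * α) • y := by
    have : w + w = 0 := by rw [← two_smul F w, h2, zero_smul]
    calc w + (b * α) • y + w = (w + w) + (b * α) • y := by abel
      _ = _ := by rw [this, zero_add]
  have e2 : a + 2 * (α * s) + a + Cfsg.sympForm m F w (w + (b * α) • y) = b * α ^ 2 := by
    rw [sympForm_add_right, sympForm_self, sympForm_smul_right, hwy]
    linear_combination (a + α * s) * h2
  rwa [e1, e2] at h1

/-- [G3] -/
theorem global_even [Fintype F] (h2 : (2 : F) = 0) (hq : 4 ≤ Fintype.card F) (hm : 2 ≤ m)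
    (H : Subgroup (Matrix.symplecticGroup (Fin m) F))
    (hstar : ∀ u w : Fin m ⊕ Fin m → F, u ≠ 0 → Cfsg.sympForm m F u w = 0 → ∃ a, sieg u w a ∈ H) :
    ∃ v : Fin m ⊕ Fin m → F, v ≠ 0 ∧ ∀ c, tv v c ∈ H := by
  have hv2 : ∀ v : V, v + v = 0 := fun v => by rw [← two_smul F v, h2, zero_smul]
  have hchar : ringChar F = 2 := by
    have := CharTwo.of_one_ne_zero_of_two_eq_zero (one_ne_zero : (1 : F) ≠ 0) h2
    exact ringChar.eq F 2
  by_cases hcase : ∃ (u y : V) (s b : F), u ≠ 0 ∧ (∀ t : F, y ≠ t • u) ∧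
      Cfsg.sympForm m F u y = 0 ∧ sieg y (s • u) b ∈ H ∧ b ≠ 0
  · obtain ⟨u, y, s, b, hu, hy, huy, hg, hb⟩ := hcase
    have hyu : Cfsg.sympForm m F y u = 0 := by rw [sympForm_swap, huy, neg_zero]
    have hy0 : y ≠ 0 := by
      have := hy 0
      rwa [zero_smul] at this
    have hu' : ∀ t : F, u ≠ t • y := by
      intro t ht
      by_cases ht0 : t = 0
      · rw [ht0, zero_smul] at ht; exact hu ht
      · apply hy t⁻¹
        rw [ht, smul_smul, inv_mul_cancel₀ ht0, one_smul]
    -- first step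
    have step1 : ∀ τ : F, sieg u (τ • y) (τ ^ 2 / b) ∈ H := by
      intro τ
      have := key_even h2 H hstar u y hu hy huy s b hg (τ / b)
      have e1 : b * (τ / b) = τ := by field_simp
      have e2 : b * (τ / b) ^ 2 = τ ^ 2 / b := by field_simp
      rwa [e1, e2] at this
    -- second step
    have step2 : ∀ τ : F, τ ≠ 0 → ∀ σ : F, sieg y (σ • u) (σ ^ 2 * (b / τ ^ 2)) ∈ H := by
      intro τ hτ σ
      have := key_even h2 H hstar y u hy0 hu' hyu τ (τ ^ 2 / b) (step1 τ) (σ * b / τ ^ 2)
      have e1 : τ ^ 2 / b * (σ * b / τ ^ 2) = σ := by field_simp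
      have e2 : τ ^ 2 / b * (σ * b / τ ^ 2) ^ 2 = σ ^ 2 * (b / τ ^ 2) := by field_simp
      rwa [e1, e2] at this
    -- an element different from 0 and 1
    obtain ⟨τ₀, hτ0, hτ1⟩ : ∃ τ : F, τ ≠ 0 ∧ τ ≠ 1 := by
      classical
      by_contra hcon
      push Not at hcon
      have : (Finset.univ : Finset F) ⊆ {0, 1} := by
        intro x _
        by_cases hx : x = 0
        · simp [hx]
        · simp [hcon x hx]
      have h3 := Finset.card_le_card this
      have h4 : ({0, 1} : Finset F).card ≤ 2 := Finset.card_le_two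
      rw [Finset.card_univ] at h3
      omega
    have hκ : b * (1 + 1 / τ₀ ^ 2) ≠ 0 := by
      apply mul_ne_zero hb
      intro h
      apply hτ1
      have h5 : τ₀ ^ 2 + 1 = 0 := by
        field_simp at h
        linear_combination h
      have h6 : (τ₀ - 1) ^ 2 = 0 := by linear_combination h5 - τ₀ * h2
      have := pow_eq_zero_iff (two_ne_zero) |>.1 h6
      exact sub_eq_zero.1 this
    refine ⟨y, hy0, fun c => ?_⟩
    obtain ⟨σ, hσ⟩ := FiniteField.isSquare_of_char_two hchar (c / (b * (1 + 1 / τ₀ ^ 2)))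
    have hA := step2 1 one_ne_zero σ
    have hB := step2 τ₀ hτ0 σ
    have hAB := H.mul_mem hA hB
    have hysu : Cfsg.sympForm m F y (σ • u) = 0 := by rw [sympForm_smul_right, hyu, mul_zero]
    rw [sieg_mul y _ _ hysu hysu, hv2, sieg_zero, sympForm_self] at hAB
    have e : σ ^ 2 * (b / 1 ^ 2) + σ ^ 2 * (b / τ₀ ^ 2) + 0 = c := by
      have h7 : σ ^ 2 * (b * (1 + 1 / τ₀ ^ 2)) = c := by
        rw [pow_two, ← hσ]
        exact div_mul_cancel₀ _ hκ
      rw [← h7]
      ring
    rwa [e] at hAB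
  · push Not at hcase
    -- all `sieg y u 0` are in `H`
    have hall : ∀ u y : V, u ≠ 0 → (∀ t : F, y ≠ t • u) → Cfsg.sympForm m F u y = 0 →
        sieg y u 0 ∈ H := by
      intro u y hu hy huy
      have hyu : Cfsg.sympForm m F y u = 0 := by rw [sympForm_swap, huy, neg_zero]
      have hy0 : y ≠ 0 := by
        have := hy 0
        rwa [zero_smul] at this
      obtain ⟨a, ha⟩ := hstar y u hy0 hyu
      have ha' : sieg y ((1 : F) • u) a ∈ H := by rwa [one_smul]
      have := hcase u y 1 a hu hy huy ha'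
      rwa [this] at ha
    let i0 : Fin m := ⟨0, by omega⟩
    let i1 : Fin m := ⟨1, by omega⟩
    have hi : i0 ≠ i1 := by
      intro h
      have := congrArg Fin.val h
      simp [i0, i1] at this
    refine ⟨eL i0, eL_ne_zero i0, fun c => ?_⟩
    by_cases hc : c = 0
    · have : tv (eL i0 : V) 0 = 1 := by
        have := tv_mul_tv (eL i0 : V) 0 0
        rw [add_zero] at this
        exact mul_eq_left.mp this
      rw [hc, this]; exact H.one_mem
    -- the three vectors
    have hx0 : (eL i1 : V) ≠ 0 := eL_ne_zero i1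
    have f1 : Cfsg.sympForm m F (eL i0 : V) (eL i1) = 0 := sympForm_eL_eL _ _
    have f2 : Cfsg.sympForm m F (eL i0 : V) (c • eR i1) = 0 := by
      rw [sympForm_smul_right, sympForm_eL_eR, if_neg hi, mul_zero]
    have f3 : Cfsg.sympForm m F (c • eR i1 : V) (eL i1) = c := by
      rw [sympForm_smul_left, sympForm_eL_right]; simp [eR]
    have g1 : Cfsg.sympForm m F (eL i1 : V) (eL i0) = 0 := sympForm_eL_eL _ _
    have g2 : Cfsg.sympForm m F (c • eR i1 : V) (eL i0) = 0 := by
      rw [sympForm_swap, f2, neg_zero]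
    have ind : ∀ z : V, z (Sum.inl i0) = 0 → ∀ t : F, (eL i0 : V) ≠ t • z := by
      intro z hz t h
      have := congrFun h (Sum.inl i0)
      simp [eL, hz] at this
    have z1 : (eL i1 : V) (Sum.inl i0) = 0 := by
      simp [eL, hi]
    have z2 : (c • eR i1 : V) (Sum.inl i0) = 0 := by
      simp [eR]
    have n2 : (c • eR i1 : V) ≠ 0 := by
      intro h
      have := congrFun h (Sum.inr i1)
      simp [eR, hc] at this
    have n3 : (eL i1 + c • eR i1 : V) ≠ 0 := by
      intro h
      have := congrFun h (Sum.inr i1)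
      simp [eR, eL, hc] at this
    have m1 := hall (eL i1) (eL i0) hx0 (ind _ z1) g1
    have m2 := hall (c • eR i1) (eL i0) n2 (ind _ z2) g2
    have m3 := hall (eL i1 + c • eR i1) (eL i0) n3
      (ind _ (by rw [Pi.add_apply, z1, z2, add_zero]))
      (by rw [sympForm_add_left, g1, g2, add_zero])
    have hprod := H.mul_mem (H.mul_mem m1 m2) m3
    rw [sieg_mul _ _ _ f1 f2, sieg_mul _ _ _ (by rw [sympForm_add_right, f1, f2, add_zero])
      (by rw [sympForm_add_right, f1, f2, add_zero]), hv2, sieg_zero, sympForm_self, f3] at hprod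
    simpa using hprod

end Cfsg.Agent.Lib.Helper24.MinSp
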